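import Mathlib

/-!
A coset table showing that the group `⟨a, b | a³ = b⁵ = (ab)² = 1⟩` has at most 60 elements.
-/

set_option autoImplicit false

namespace Cfsg.Agent.Lib.Icosa

variable {Γ : Type*} [Group Γ] {a b : Γ}

theorem mv_trans {r r' r'' w v : Γ} {k l : ℤ} (h : r * w = b ^ k * r') (h' : r' * v = b ^ l * r'') :
    r * (w * v) = b ^ (k + l) * r'' := by
  rw [← mul_assoc, h, mul_assoc, h', ← mul_assoc, zpow_add]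

theorem mv_inv {r r' w : Γ} {k : ℤ} (h : r * w = b ^ k * r') : r' * w⁻¹ = b ^ (-k) * r := by
  rw [mul_inv_eq_iff_eq_mul, mul_assoc, h, ← mul_assoc, ← zpow_add, neg_add_cancel, zpow_zero, one_mul]

set_option maxHeartbeats 1600000 in
/-- Twelve coset representatives of `⟨b⟩` in `⟨a, b⟩`. -/
theorem exists_forms (ha : a ^ 3 = 1) (hb : b ^ 5 = 1) (hab : (a * b) ^ 2 = 1) :
    ∃ R : Fin 12 → Γ, ∀ g ∈ Subgroup.closure ({a, b} : Set Γ), ∃ j : Fin 12, ∃ k : ℤ, g = b ^ k * R j := by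
  have hXxx : a⁻¹ = a * a := inv_eq_of_mul_eq_one_right (by rw [← ha]; simp [pow_succ, mul_assoc])
  have hYy : b⁻¹ = b * b * b * b := inv_eq_of_mul_eq_one_right (by rw [← hb]; simp [pow_succ, mul_assoc])
  have hxXX : a = a⁻¹ * a⁻¹ := by rw [← mul_inv_rev, ← hXxx, inv_inv]
  have hyY : b = b⁻¹ * b⁻¹ * b⁻¹ * b⁻¹ := by
    simp only [← mul_inv_rev]
    rw [show b * (b * (b * b)) = b * b * b * b by simp [mul_assoc], ← hYy, inv_inv]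
  have hXyxy : a⁻¹ = b * a * b := inv_eq_of_mul_eq_one_right (by rw [← hab]; simp [pow_succ, mul_assoc])
  have hYxyx : b⁻¹ = a * b * a := inv_eq_of_mul_eq_one_left (by rw [← hab]; simp [pow_succ, mul_assoc])
  have hxYXY : a = b⁻¹ * a⁻¹ * b⁻¹ := by
    rw [← mul_inv_rev, ← mul_inv_rev, show b * (a * b) = b * a * b by simp [mul_assoc], ← hXyxy, inv_inv]
  have hyXYX : b = a⁻¹ * b⁻¹ * a⁻¹ := by
    rw [← mul_inv_rev, ← mul_inv_rev, show a * (b * a) = a * b * a by simp [mul_assoc], ← hYxyx, inv_inv]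
  obtain ⟨R0, hR0⟩ : ∃ r : Γ, r = 1 := ⟨1, rfl⟩
  have e0y : R0 * b = b ^ (1 : ℤ) * R0 := by rw [hR0, one_mul, mul_one, zpow_one]
  have e0Y : R0 * b⁻¹ = b ^ (-1 : ℤ) * R0 := by
    exact mv_inv e0y
  obtain ⟨R1, hR1⟩ : ∃ r, r = R0 * a := ⟨_, rfl⟩
  have e0x : R0 * a = b ^ (0 : ℤ) * R1 := by rw [hR1, zpow_zero, one_mul]
  have e1X : R1 * a⁻¹ = b ^ (0 : ℤ) * R0 := by
    exact mv_inv e0x
  obtain ⟨R2, hR2⟩ : ∃ r, r = R0 * a⁻¹ := ⟨_, rfl⟩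
  have e0X : R0 * a⁻¹ = b ^ (0 : ℤ) * R2 := by rw [hR2, zpow_zero, one_mul]
  have e2x : R2 * a = b ^ (0 : ℤ) * R0 := by
    simpa using mv_inv e0X
  have e1x : R1 * a = b ^ (0 : ℤ) * R2 := by
    conv_lhs => rw [hxXX]
    simpa using (mv_trans e1X e0X)
  have e2X : R2 * a⁻¹ = b ^ (0 : ℤ) * R1 := by
    exact mv_inv e1x
  have e1y : R1 * b = b ^ (-1 : ℤ) * R2 := by
    conv_lhs => rw [hyXYX]
    simpa using (mv_trans (mv_trans e1X e0Y) e0X)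
  have e2Y : R2 * b⁻¹ = b ^ (1 : ℤ) * R1 := by
    exact mv_inv e1y
  obtain ⟨R3, hR3⟩ : ∃ r, r = R1 * b⁻¹ := ⟨_, rfl⟩
  have e1Y : R1 * b⁻¹ = b ^ (0 : ℤ) * R3 := by rw [hR3, zpow_zero, one_mul]
  have e3y : R3 * b = b ^ (0 : ℤ) * R1 := by
    simpa using mv_inv e1Y
  obtain ⟨R4, hR4⟩ : ∃ r, r = R2 * b := ⟨_, rfl⟩
  have e2y : R2 * b = b ^ (0 : ℤ) * R4 := by rw [hR4, zpow_zero, one_mul]
  have e4Y : R4 * b⁻¹ = b ^ (0 : ℤ) * R2 := by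
    exact mv_inv e2y
  have e3X : R3 * a⁻¹ = b ^ (0 : ℤ) * R4 := by
    conv_lhs => rw [hXyxy]
    simpa using (mv_trans (mv_trans e3y e1x) e2y)
  have e4x : R4 * a = b ^ (0 : ℤ) * R3 := by
    simpa using mv_inv e3X
  obtain ⟨R5, hR5⟩ : ∃ r, r = R3 * a := ⟨_, rfl⟩
  have e3x : R3 * a = b ^ (0 : ℤ) * R5 := by rw [hR5, zpow_zero, one_mul]
  have e5X : R5 * a⁻¹ = b ^ (0 : ℤ) * R3 := by
    exact mv_inv e3x
  have e4X : R4 * a⁻¹ = b ^ (0 : ℤ) * R5 := by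
    conv_lhs => rw [hXxx]
    simpa using (mv_trans e4x e3x)
  have e5x : R5 * a = b ^ (0 : ℤ) * R4 := by
    simpa using mv_inv e4X
  obtain ⟨R6, hR6⟩ : ∃ r, r = R3 * b⁻¹ := ⟨_, rfl⟩
  have e3Y : R3 * b⁻¹ = b ^ (0 : ℤ) * R6 := by rw [hR6, zpow_zero, one_mul]
  have e6y : R6 * b = b ^ (0 : ℤ) * R3 := by
    simpa using mv_inv e3Y
  have e4y : R4 * b = b ^ (1 : ℤ) * R6 := by
    conv_lhs => rw [hyY]
    simpa using (mv_trans (mv_trans (mv_trans e4Y e2Y) e1Y) e3Y)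
  have e6Y : R6 * b⁻¹ = b ^ (-1 : ℤ) * R4 := by
    exact mv_inv e4y
  obtain ⟨R7, hR7⟩ : ∃ r, r = R5 * b := ⟨_, rfl⟩
  have e5y : R5 * b = b ^ (0 : ℤ) * R7 := by rw [hR7, zpow_zero, one_mul]
  have e7Y : R7 * b⁻¹ = b ^ (0 : ℤ) * R5 := by
    exact mv_inv e5y
  have e6X : R6 * a⁻¹ = b ^ (0 : ℤ) * R7 := by
    conv_lhs => rw [hXyxy]
    simpa using (mv_trans (mv_trans e6y e3x) e5y)
  have e7x : R7 * a = b ^ (0 : ℤ) * R6 := by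
    simpa using mv_inv e6X
  obtain ⟨R8, hR8⟩ : ∃ r, r = R5 * b⁻¹ := ⟨_, rfl⟩
  have e5Y : R5 * b⁻¹ = b ^ (0 : ℤ) * R8 := by rw [hR8, zpow_zero, one_mul]
  have e8y : R8 * b = b ^ (0 : ℤ) * R5 := by
    simpa using mv_inv e5Y
  have e6x : R6 * a = b ^ (-1 : ℤ) * R8 := by
    conv_lhs => rw [hxYXY]
    simpa using (mv_trans (mv_trans e6Y e4X) e5Y)
  have e8X : R8 * a⁻¹ = b ^ (1 : ℤ) * R6 := by
    exact mv_inv e6x
  have e7X : R7 * a⁻¹ = b ^ (-1 : ℤ) * R8 := by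
    conv_lhs => rw [hXxx]
    simpa using (mv_trans e7x e6x)
  have e8x : R8 * a = b ^ (1 : ℤ) * R7 := by
    simpa using mv_inv e7X
  obtain ⟨R9, hR9⟩ : ∃ r, r = R7 * b := ⟨_, rfl⟩
  have e7y : R7 * b = b ^ (0 : ℤ) * R9 := by rw [hR9, zpow_zero, one_mul]
  have e9Y : R9 * b⁻¹ = b ^ (0 : ℤ) * R7 := by
    exact mv_inv e7y
  obtain ⟨R10, hR10⟩ : ∃ r, r = R8 * b⁻¹ := ⟨_, rfl⟩
  have e8Y : R8 * b⁻¹ = b ^ (0 : ℤ) * R10 := by rw [hR10, zpow_zero, one_mul]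
  have e10y : R10 * b = b ^ (0 : ℤ) * R8 := by
    simpa using mv_inv e8Y
  have e9x : R9 * a = b ^ (-1 : ℤ) * R10 := by
    conv_lhs => rw [hxYXY]
    simpa using (mv_trans (mv_trans e9Y e7X) e8Y)
  have e10X : R10 * a⁻¹ = b ^ (1 : ℤ) * R9 := by
    exact mv_inv e9x
  have e9y : R9 * b = b ^ (0 : ℤ) * R10 := by
    conv_lhs => rw [hyY]
    simpa using (mv_trans (mv_trans (mv_trans e9Y e7Y) e5Y) e8Y)
  have e10Y : R10 * b⁻¹ = b ^ (0 : ℤ) * R9 := by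
    exact mv_inv e9y
  obtain ⟨R11, hR11⟩ : ∃ r, r = R9 * a⁻¹ := ⟨_, rfl⟩
  have e9X : R9 * a⁻¹ = b ^ (0 : ℤ) * R11 := by rw [hR11, zpow_zero, one_mul]
  have e11x : R11 * a = b ^ (0 : ℤ) * R9 := by
    simpa using mv_inv e9X
  have e10x : R10 * a = b ^ (1 : ℤ) * R11 := by
    conv_lhs => rw [hxXX]
    simpa using (mv_trans e10X e9X)
  have e11X : R11 * a⁻¹ = b ^ (-1 : ℤ) * R10 := by
    exact mv_inv e10x
  have e11y : R11 * b = b ^ (-1 : ℤ) * R11 := by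
    conv_lhs => rw [hyXYX]
    simpa using (mv_trans (mv_trans e11X e10Y) e9X)
  have e11Y : R11 * b⁻¹ = b ^ (1 : ℤ) * R11 := by
    exact mv_inv e11y
  refine ⟨![R0, R1, R2, R3, R4, R5, R6, R7, R8, R9, R10, R11], fun g hg => ?_⟩
  let R : Fin 12 → Γ := ![R0, R1, R2, R3, R4, R5, R6, R7, R8, R9, R10, R11]
  have sx : ∀ j : Fin 12, ∃ j' : Fin 12, ∃ k : ℤ, R j * a = b ^ k * R j' := by
    intro j
    fin_cases j
    · exact ⟨1, 0, e0x⟩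
    · exact ⟨2, 0, e1x⟩
    · exact ⟨0, 0, e2x⟩
    · exact ⟨5, 0, e3x⟩
    · exact ⟨3, 0, e4x⟩
    · exact ⟨4, 0, e5x⟩
    · exact ⟨8, -1, e6x⟩
    · exact ⟨6, 0, e7x⟩
    · exact ⟨7, 1, e8x⟩
    · exact ⟨10, -1, e9x⟩
    · exact ⟨11, 1, e10x⟩
    · exact ⟨9, 0, e11x⟩
  have sX : ∀ j : Fin 12, ∃ j' : Fin 12, ∃ k : ℤ, R j * a⁻¹ = b ^ k * R j' := by
    intro j
    fin_cases j
    · exact ⟨2, 0, e0X⟩
    · exact ⟨0, 0, e1X⟩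
    · exact ⟨1, 0, e2X⟩
    · exact ⟨4, 0, e3X⟩
    · exact ⟨5, 0, e4X⟩
    · exact ⟨3, 0, e5X⟩
    · exact ⟨7, 0, e6X⟩
    · exact ⟨8, -1, e7X⟩
    · exact ⟨6, 1, e8X⟩
    · exact ⟨11, 0, e9X⟩
    · exact ⟨9, 1, e10X⟩
    · exact ⟨10, -1, e11X⟩
  have sy : ∀ j : Fin 12, ∃ j' : Fin 12, ∃ k : ℤ, R j * b = b ^ k * R j' := by
    intro j
    fin_cases j
    · exact ⟨0, 1, e0y⟩
    · exact ⟨2, -1, e1y⟩
    · exact ⟨4, 0, e2y⟩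
    · exact ⟨1, 0, e3y⟩
    · exact ⟨6, 1, e4y⟩
    · exact ⟨7, 0, e5y⟩
    · exact ⟨3, 0, e6y⟩
    · exact ⟨9, 0, e7y⟩
    · exact ⟨5, 0, e8y⟩
    · exact ⟨10, 0, e9y⟩
    · exact ⟨8, 0, e10y⟩
    · exact ⟨11, -1, e11y⟩
  have sY : ∀ j : Fin 12, ∃ j' : Fin 12, ∃ k : ℤ, R j * b⁻¹ = b ^ k * R j' := by
    intro j
    fin_cases j
    · exact ⟨0, -1, e0Y⟩
    · exact ⟨3, 0, e1Y⟩
    · exact ⟨1, 1, e2Y⟩
    · exact ⟨6, 0, e3Y⟩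
    · exact ⟨2, 0, e4Y⟩
    · exact ⟨8, 0, e5Y⟩
    · exact ⟨4, -1, e6Y⟩
    · exact ⟨5, 0, e7Y⟩
    · exact ⟨10, 0, e8Y⟩
    · exact ⟨7, 0, e9Y⟩
    · exact ⟨9, 0, e10Y⟩
    · exact ⟨11, 1, e11Y⟩
  induction hg using Subgroup.closure_induction_right with
  | one => exact ⟨0, 0, by rw [zpow_zero, one_mul]; exact hR0.symm⟩
  | mul_right x hx y hy ih =>
    obtain ⟨j, k, rfl⟩ := ih
    rcases hy with rfl | rfl
    · obtain ⟨j', l, e⟩ := sx j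
      exact ⟨j', k + l, by rw [mul_assoc, e, ← mul_assoc, zpow_add]⟩
    · obtain ⟨j', l, e⟩ := sy j
      exact ⟨j', k + l, by rw [mul_assoc, e, ← mul_assoc, zpow_add]⟩
  | mul_inv_cancel x hx y hy ih =>
    obtain ⟨j, k, rfl⟩ := ih
    rcases hy with rfl | rfl
    · obtain ⟨j', l, e⟩ := sX j
      exact ⟨j', k + l, by rw [mul_assoc, e, ← mul_assoc, zpow_add]⟩
    · obtain ⟨j', l, e⟩ := sY j
      exact ⟨j', k + l, by rw [mul_assoc, e, ← mul_assoc, zpow_add]⟩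

/-- A group generated by such elements has at most 60 elements. -/
theorem finite_card_le (ha : a ^ 3 = 1) (hb : b ^ 5 = 1) (hab : (a * b) ^ 2 = 1)
    (hgen : Subgroup.closure ({a, b} : Set Γ) = ⊤) : Finite Γ ∧ Nat.card Γ ≤ 60 := by
  obtain ⟨R, hR⟩ := exists_forms ha hb hab
  let f : Fin 5 × Fin 12 → Γ := fun p => b ^ (p.1 : ℕ) * R p.2
  have hf : Function.Surjective f := fun g => by
    obtain ⟨j, k, rfl⟩ := hR g (hgen ▸ Subgroup.mem_top g)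
    refine ⟨(⟨(k % 5).toNat, by omega⟩, j), ?_⟩
    show b ^ (k % 5).toNat * R j = _
    rw [← zpow_natCast, Int.toNat_of_nonneg (Int.emod_nonneg k (by norm_num))]
    conv_rhs => rw [← Int.mul_ediv_add_emod k 5, zpow_add, zpow_mul,
      show b ^ (5 : ℤ) = 1 by exact_mod_cast hb, one_zpow, one_mul]
  haveI := Finite.of_surjective f hf
  exact ⟨inferInstance, (Nat.card_le_card_of_surjective f hf).trans (by simp)⟩

end Cfsg.Agent.Lib.Icosa
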